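import Mathlib
import Cfsg.Agent.H717.FieldOf
set_option linter.all false

-- part: H717/Count
section
/-!
# Counting conjugacy classes over a normal abelian subgroup
-/

set_option autoImplicit false

namespace Cfsg.Agent.H717.Count

open Finset

variable {D : Type*} [Group D]

/-- The class number as a sum of centralizer orders. -/
theorem sum_card_centralizer [Fintype D] :
    ∑ x : D, Nat.card (Subgroup.centralizer ({x} : Set D)) = Nat.card (ConjClasses D) * Nat.card D := by
  rw [← card_comm_eq_card_conjClasses_mul_card D]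
  let e : {p : D × D // Commute p.1 p.2} ≃ Σ x : D, Subgroup.centralizer ({x} : Set D) :=
    { toFun := fun p => ⟨p.1.1, ⟨p.1.2, by
        rw [Subgroup.mem_centralizer_singleton_iff]; exact p.2.symm.eq⟩⟩
      invFun := fun q => ⟨(q.1, (q.2 : D)), by
        have := q.2.2
        rw [Subgroup.mem_centralizer_singleton_iff] at this
        exact this.symm⟩
      left_inv := fun p => rfl
      right_inv := fun q => rfl }
  rw [Nat.card_congr e, Nat.card_sigma]

/-- `|C(x)| ≤ |C_B(x)| |D : B|`. -/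
theorem card_centralizer_le [Finite D] (B : Subgroup D) [B.Normal] (x : D) :
    Nat.card (Subgroup.centralizer ({x} : Set D)) ≤
      Nat.card ((B ⊓ Subgroup.centralizer ({x} : Set D) : Subgroup D)) * B.index := by
  set C := Subgroup.centralizer ({x} : Set D) with hC
  have h1 : Nat.card ((B ⊓ C : Subgroup D)) * B.relIndex C = Nat.card C := by
    rw [← Subgroup.inf_relIndex_right B C, ← Subgroup.relIndex_bot_left,
      Subgroup.relIndex_mul_relIndex _ _ _ bot_le inf_le_right, Subgroup.relIndex_bot_left]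
  have h2 : B.relIndex C ≤ B.index :=
    Nat.le_of_dvd (Nat.pos_of_ne_zero Subgroup.index_ne_zero_of_finite)
      (Subgroup.relIndex_dvd_index_of_normal B C)
  rw [← h1]
  exact Nat.mul_le_mul_left _ h2

/-- **The class number count.** -/
theorem index_mul_le [Finite D] (B : Subgroup D) [B.Normal] (t : ℕ)
    (ht : ∀ c : D, c ∉ B → Nat.card ((B ⊓ Subgroup.centralizer ({c} : Set D) : Subgroup D)) ≤ t) :
    B.index * Nat.card (ConjClasses D) + t ≤ Nat.card B + B.index ^ 2 * t := by
  classical
  haveI := Fintype.ofFinite D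
  set m := B.index with hm
  set b := Nat.card B with hb
  have hbm : b * m = Nat.card D := B.card_mul_index
  have hb0 : 0 < b := Nat.card_pos
  have hm0 : 0 < m := Nat.pos_of_ne_zero Subgroup.index_ne_zero_of_finite
  have hcard : ∀ x : D, Nat.card (Subgroup.centralizer ({x} : Set D)) = ∑ c : D, if c * x = x * c then 1 else 0 := by
    intro x
    rw [Nat.card_eq_fintype_card, Fintype.card_subtype, Finset.card_filter]
    refine Finset.sum_congr rfl fun c _ => ?_
    simp only [Subgroup.mem_centralizer_singleton_iff]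
  have hcardB : ∀ c : D, Nat.card ((B ⊓ Subgroup.centralizer ({c} : Set D) : Subgroup D)) =
      ∑ x ∈ univ.filter (· ∈ B), if c * x = x * c then 1 else 0 := by
    intro c
    rw [Nat.card_eq_fintype_card, Fintype.card_subtype, ← Finset.card_filter, Finset.filter_filter]
    congr 1
    ext x
    simp only [Finset.mem_filter, Finset.mem_univ, true_and, Subgroup.mem_inf,
      Subgroup.mem_centralizer_singleton_iff]
    constructor
    · rintro ⟨h1, h2⟩; exact ⟨h1, h2.symm⟩
    · rintro ⟨h1, h2⟩; exact ⟨h1, h2.symm⟩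
  have hBcard : (univ.filter (· ∈ B)).card = b := by
    rw [hb, Nat.card_eq_fintype_card, Fintype.card_subtype]
  have hNcard : (univ.filter (· ∉ B)).card + b = b * m := by
    rw [hbm, Nat.card_eq_fintype_card, ← hBcard, add_comm, ← Finset.card_univ,
      Finset.card_filter_add_card_filter_not]
  have hsum := sum_card_centralizer (D := D)
  rw [← Finset.sum_filter_add_sum_filter_not univ (· ∈ B)] at hsum
  -- first part
  have h1 : ∑ x ∈ univ.filter (· ∈ B), Nat.card (Subgroup.centralizer ({x} : Set D)) ≤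
      b * b + (univ.filter (· ∉ B)).card * t := by
    simp only [hcard]
    rw [Finset.sum_comm]
    rw [← Finset.sum_filter_add_sum_filter_not univ (· ∈ B)]
    refine Nat.add_le_add ?_ ?_
    · refine (Finset.sum_le_card_nsmul _ _ b ?_).trans (by rw [hBcard, smul_eq_mul])
      intro c _
      rw [← hBcard, ← Finset.card_filter]
      exact Finset.card_filter_le _ _
    · refine (Finset.sum_le_card_nsmul _ _ t ?_).trans (by rw [smul_eq_mul])
      intro c hc
      rw [← hcardB]
      exact ht c (Finset.mem_filter.1 hc).2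
  have h2 : ∑ x ∈ univ.filter (· ∉ B), Nat.card (Subgroup.centralizer ({x} : Set D)) ≤
      (univ.filter (· ∉ B)).card * (t * m) := by
    refine (Finset.sum_le_card_nsmul _ _ (t * m) ?_).trans (by rw [smul_eq_mul])
    intro c hc
    exact (card_centralizer_le B c).trans (Nat.mul_le_mul_right _ (ht c (Finset.mem_filter.1 hc).2))
  set N := (univ.filter (· ∉ B)).card with hN
  have h3 : Nat.card (ConjClasses D) * (b * m) ≤ b * b + N * t + N * (t * m) := by
    rw [hbm, ← hsum]
    exact Nat.add_le_add h1 h2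
  have h4 : b * (m * Nat.card (ConjClasses D) + t) ≤ b * (b + m ^ 2 * t) := by
    have h5 : N * t + N * (t * m) + b * t * (1 + m) = b * m * t * (1 + m) := by
      rw [← hNcard]; ring
    nlinarith
  exact Nat.le_of_mul_le_mul_left h4 hb0

end Cfsg.Agent.H717.Count
end

-- part: H717/Semi
section
/-!
# The class number of coprime semilinear groups transitive on the nonzero vectors
-/

set_option autoImplicit false
set_option linter.style.haveILetI false

namespace Cfsg.Agent.H717.Semi

universe u v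

/-- `D` acts semilinearly on the one-dimensional space `E` over a field `K` (with `|K| = |E|`). -/
def IsSemi (D : Type v) (E : Type u) [Group D] [AddCommGroup E] [DistribMulAction D E] : Prop :=
  ∃ (K : Type u) (_ : Field K) (_ : Finite K) (_ : Module K E) (σ : D →* (K ≃+* K)),
    (∀ (d : D) (k : K) (e : E), d • (k • e) = (σ d k) • (d • e)) ∧ Nat.card K = Nat.card E

/-! ### Arithmetic -/

theorem arith_odd {f m : ℕ} (hf : 3 ≤ f) (hm : 2 ≤ m) :
    (m + 1) * f ^ (m / 2) ≤ f ^ m ∧ ((m + 1) * f ^ (m / 2) = f ^ m → f = 3 ∧ m = 2) := by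
  obtain ⟨k, hk⟩ : ∃ k, m = m / 2 + k := ⟨m - m / 2, by omega⟩
  have hk1 : 1 ≤ k := by omega
  have hmk : m ≤ 2 * k := by omega
  have e1 : f ^ m = f ^ k * f ^ (m / 2) := by
    rw [← pow_add]; congr 1; omega
  have e2 : ∀ k : ℕ, 2 * k + 1 ≤ 3 ^ k := by
    intro k
    induction k with
    | zero => norm_num
    | succ k ih => rw [pow_succ]; omega
  have e3 : 3 ^ k ≤ f ^ k := Nat.pow_le_pow_left hf k
  have e4 : m + 1 ≤ f ^ k := by have := e2 k; omega
  have hpos : 0 < f ^ (m / 2) := Nat.pow_pos (by omega)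
  refine ⟨by rw [e1]; exact Nat.mul_le_mul_right _ e4, fun h => ?_⟩
  rw [e1] at h
  have h2 : m + 1 = f ^ k := Nat.eq_of_mul_eq_mul_right hpos h
  have hk2 : k = 1 := by
    by_contra hne
    obtain ⟨j, rfl⟩ : ∃ j, k = j + 2 := ⟨k - 2, by omega⟩
    have h3 := e2 j
    have h4 : 3 ^ (j + 2) = 9 * 3 ^ j := by rw [pow_add]; ring
    omega
  subst hk2
  rw [pow_one] at h2
  omega

theorem arith_two {f m : ℕ} (hf : 2 ≤ f) (hm : 3 ≤ m) :
    (m + 1) * f ^ (m / 3) ≤ f ^ m ∧ ((m + 1) * f ^ (m / 3) = f ^ m → f = 2 ∧ m = 3) := by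
  obtain ⟨k, hk⟩ : ∃ k, m = m / 3 + k := ⟨m - m / 3, by omega⟩
  have hk1 : 2 ≤ k := by omega
  have hmk : 2 * m ≤ 3 * k := by omega
  have e1 : f ^ m = f ^ k * f ^ (m / 3) := by
    rw [← pow_add]; congr 1; omega
  have e2 : ∀ k : ℕ, 3 * (k + 2) + 2 ≤ 2 * 2 ^ (k + 2) := by
    intro k
    induction k with
    | zero => norm_num
    | succ k ih => rw [show k + 1 + 2 = (k + 2) + 1 from rfl, pow_succ]; omega
  have e3 : 2 ^ k ≤ f ^ k := Nat.pow_le_pow_left hf k
  obtain ⟨j, rfl⟩ : ∃ j, k = j + 2 := ⟨k - 2, by omega⟩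
  have e4 : m + 1 ≤ f ^ (j + 2) := by have := e2 j; omega
  have hpos : 0 < f ^ (m / 3) := Nat.pow_pos (by omega)
  refine ⟨by rw [e1]; exact Nat.mul_le_mul_right _ e4, fun h => ?_⟩
  rw [e1] at h
  have h2 : m + 1 = f ^ (j + 2) := Nat.eq_of_mul_eq_mul_right hpos h
  have hk2 : j = 0 := by
    by_contra hne
    obtain ⟨i, rfl⟩ : ∃ i, j = i + 1 := ⟨j - 1, by omega⟩
    have h3 := e2 i
    have h4 : 2 ^ (i + 1 + 2) = 2 * 2 ^ (i + 2) := by rw [show i + 1 + 2 = (i + 2) + 1 from rfl, pow_succ]; ring
    omega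
  subst hk2
  rw [zero_add] at h2 hk
  have hm3 : m = 3 := by omega
  subst hm3
  refine ⟨?_, rfl⟩
  nlinarith

/-- The final inequality. -/
theorem final {q m s b k h : ℕ} (hm : 2 ≤ m) (hs : 1 ≤ s) (hb : b + 1 ≤ q) (hh : h ≤ m)
    (hk : m * k + (s - 1) ≤ b + m ^ 2 * (s - 1)) (hq : (m + 1) * s ≤ q) :
    k + h ≤ q ∧ (k + h = q → (m + 1) * s = q ∧ b + 1 = q) := by
  obtain ⟨s', rfl⟩ : ∃ s', s = s' + 1 := ⟨s - 1, by omega⟩
  rw [Nat.add_sub_cancel] at hk
  obtain ⟨m', rfl⟩ : ∃ m', m = m' + 1 := ⟨m - 1, by omega⟩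
  -- m (k + h) + m' q ≤ ...
  have h1 : (m' + 1) * (k + h) + s' ≤ b + (m' + 1) ^ 2 * s' + (m' + 1) * (m' + 1) := by
    have := Nat.mul_le_mul_left (m' + 1) hh
    nlinarith
  have h2 : (m' + 1) * (k + h) ≤ b + 1 + m' * ((m' + 1 + 1) * (s' + 1)) := by nlinarith
  have h3 := Nat.mul_le_mul_left m' hq
  constructor
  · have h4 : (m' + 1) * (k + h) ≤ (m' + 1) * q := by nlinarith
    exact Nat.le_of_mul_le_mul_left h4 (Nat.succ_pos m')
  · intro heq
    rw [heq] at h2
    have h5 : m' * q ≤ m' * ((m' + 1 + 1) * (s' + 1)) := by nlinarith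
    have h6 := Nat.le_of_mul_le_mul_left h5 (by omega)
    refine ⟨le_antisymm hq h6, ?_⟩
    have h7 : (m' + 1 + 1) * (s' + 1) = q := le_antisymm hq h6
    rw [h7] at h2
    nlinarith

/-! ### Fixed fields -/

theorem card_fixed {K : Type u} [Field K] [Finite K] (S : Subgroup (K ≃+* K)) :
    Nat.card (FixedPoints.subfield S K) ^ Nat.card S = Nat.card K := by
  haveI : Finite (K ≃+* K) := Finite.of_injective (fun f : K ≃+* K => (f : K → K)) DFunLike.coe_injective
  haveI : Finite S := inferInstance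
  haveI := Fintype.ofFinite S
  haveI : FaithfulSMul S K := ⟨fun {a b} h => Subtype.ext (RingEquiv.ext fun k => h k)⟩
  have h1 := FixedPoints.finrank_eq_card S K
  rw [Module.natCard_eq_pow_finrank (K := FixedPoints.subfield S K) (V := K), h1,
    Nat.card_eq_fintype_card (α := S)]

theorem two_le_card {K : Type u} [Field K] [Finite K] (F : Subfield K) : 2 ≤ Nat.card F :=
  Finite.one_lt_card

theorem three_le_card {K : Type u} [Field K] [Finite K] (F : Subfield K) (h2 : (2 : K) ≠ 0) :
    3 ≤ Nat.card F := by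
  have h : 2 ≤ Nat.card F := two_le_card F
  by_contra hlt
  have h3 : Nat.card F = 2 := by omega
  haveI := Fintype.ofFinite F
  rw [Nat.card_eq_fintype_card] at h3
  have h4 : ((Fintype.card F : ℕ) : F) = 0 := Nat.cast_card_eq_zero F
  rw [h3] at h4
  exact h2 (congrArg (fun x : F => (x : K)) h4)

section Main

variable {D : Type v} {E : Type u} [Group D] [Finite D] [AddCommGroup E] [Finite E] [Nontrivial E]
  [DistribMulAction D E] [FaithfulSMul D E]

omit [Finite D] [Nontrivial E] [FaithfulSMul D E] in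
/-- The order of a transitive linear group. -/
theorem card_eq (htr : ∀ x y : E, x ≠ 0 → y ≠ 0 → ∃ d : D, d • x = y) {v : E} (hv : v ≠ 0) :
    Nat.card D = (Nat.card E - 1) * Nat.card (MulAction.stabilizer D v) := by
  have h := MulAction.index_stabilizer D v
  have h2 : MulAction.orbit D v = {(0 : E)}ᶜ := by
    ext x
    rw [Set.mem_compl_iff, Set.mem_singleton_iff]
    constructor
    · rintro ⟨d, rfl⟩ h0
      exact hv ((smul_eq_zero_iff_eq d).1 h0)
    · intro hx
      exact htr v x hv hx
  rw [h2, Set.ncard_compl, Set.ncard_singleton] at h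
  rw [← h]
  exact (Subgroup.index_mul_card _).symm

/-- **The class number of coprime semilinear groups.** -/
theorem main
    {p : ℕ} [hp : Fact p.Prime] (hpE : ∀ e : E, p • e = 0) (hcop : ¬ p ∣ Nat.card D)
    (hS : IsSemi D E) {v : E} (hv : v ≠ 0) :
    Nat.card (ConjClasses D) + Nat.card (ConjClasses (MulAction.stabilizer D v)) ≤ Nat.card E ∧
    (Nat.card (ConjClasses D) + Nat.card (ConjClasses (MulAction.stabilizer D v)) = Nat.card E →
      IsCyclic D ∨ (Nat.card E = 8 ∧ Nat.card D = 21) ∨ (Nat.card E = 9 ∧ Nat.card D = 16)) := by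
  obtain ⟨K, _, _, _, σ, hσ, hK⟩ := hS
  set q := Nat.card E with hq
  haveI : Finite (K ≃+* K) := Finite.of_injective (fun f : K ≃+* K => (f : K → K)) DFunLike.coe_injective
  have hK1 : 1 < Nat.card K := Finite.one_lt_card
  -- dimension one
  haveI : Module.Finite K E := Module.Finite.of_finite
  have hfr : Module.finrank K E = 1 := by
    have h1 := Module.natCard_eq_pow_finrank (K := K) (V := E)
    rw [← hq, ← hK] at h1
    by_contra hne
    rcases Nat.lt_or_ge (Module.finrank K E) 1 with h2 | h2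
    · have h3 : Module.finrank K E = 0 := by omega
      rw [h3, pow_zero] at h1
      omega
    · have h3 : 2 ≤ Module.finrank K E := by omega
      have h4 := Nat.pow_le_pow_right (by omega : 0 < Nat.card K) h3
      rw [← h1] at h4
      nlinarith
  have hspan : ∀ e : E, ∃ k : K, k • v = e := by
    intro e
    exact exists_smul_eq_of_finrank_eq_one hfr hv e
  set B : Subgroup D := σ.ker with hB
  -- scalars
  have hBs : ∀ b : D, b ∈ B → ∃ k : K, ∀ e : E, b • e = k • e := by
    intro b hb
    obtain ⟨k, hk⟩ := hspan (b • v)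
    refine ⟨k, fun e => ?_⟩
    obtain ⟨l, rfl⟩ := hspan e
    rw [hσ, (show σ b = 1 from hb), ← hk, smul_comm]
    rfl
  choose! κ hκ using hBs
  have hκ0 : ∀ b ∈ B, κ b ≠ 0 := by
    intro b hb h0
    have := hκ b hb v
    rw [h0, zero_smul, smul_eq_zero_iff_eq] at this
    exact hv this
  have hκinj : ∀ a ∈ B, ∀ b ∈ B, κ a = κ b → a = b := by
    intro a ha b hb hab
    apply FaithfulSMul.eq_of_smul_eq_smul (α := E)
    intro e
    rw [hκ a ha, hκ b hb, hab]
  have hBcomm : ∀ a ∈ B, ∀ b ∈ B, a * b = b * a := by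
    intro a ha b hb
    apply FaithfulSMul.eq_of_smul_eq_smul (α := E)
    intro e
    rw [mul_smul, mul_smul, hκ a ha, hκ b hb, hκ b hb, hκ a ha, smul_comm]
  -- the order of `B`
  have hcount : ∀ (S : Subgroup D) (F : Subfield K), S ≤ B → (∀ b ∈ S, κ b ∈ F) →
      Nat.card S + 1 ≤ Nat.card F := by
    intro S F hSB hSF
    have h1 : Nat.card S ≤ ({0}ᶜ : Set F).ncard := by
      rw [← Nat.card_coe_set_eq]
      refine Nat.card_le_card_of_injective
        (fun b : S => (⟨⟨κ b, hSF b b.2⟩, fun h => hκ0 b (hSB b.2) (congrArg Subtype.val h)⟩ : ({0}ᶜ : Set F))) ?_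
      intro a b hab
      apply Subtype.ext
      refine hκinj _ (hSB a.2) _ (hSB b.2) ?_
      exact congrArg (fun x : ({0}ᶜ : Set F) => ((x : F) : K)) hab
    rw [Set.ncard_compl, Set.ncard_singleton] at h1
    have h2 := two_le_card F
    omega
  have hBq : Nat.card B + 1 ≤ q := by
    have := hcount B ⊤ le_rfl (fun _ _ => Subfield.mem_top _)
    rw [← hK]
    refine this.trans ?_
    exact Nat.card_le_card_of_injective (fun x : (⊤ : Subfield K) => (x : K)) Subtype.val_injective
  -- the stabilizer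
  set H := MulAction.stabilizer D v with hH
  have hHB : H ⊓ B = ⊥ := by
    rw [eq_bot_iff]
    rintro b ⟨h1, h2⟩
    rw [Subgroup.mem_bot]
    apply FaithfulSMul.eq_of_smul_eq_smul (α := E)
    intro e
    have h3 : κ b = 1 := by
      have h4 := hκ b h2 v
      rw [(show b • v = v from h1)] at h4
      have h5 : (κ b - 1) • v = 0 := by rw [sub_smul, one_smul, ← h4, sub_self]
      rcases smul_eq_zero.1 h5 with h6 | h6
      · exact sub_eq_zero.1 h6
      · exact absurd h6 hv
    rw [hκ b h2, h3, one_smul, one_smul]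
  set m := B.index with hm
  have hHm : Nat.card H ≤ m := by
    have h1 : B.relIndex H = Nat.card H := by
      rw [← Subgroup.inf_relIndex_left, hHB, Subgroup.relIndex_bot_left]
    rw [← h1]
    exact Nat.le_of_dvd (Nat.pos_of_ne_zero Subgroup.index_ne_zero_of_finite)
      (Subgroup.relIndex_dvd_index_of_normal B H)
  have hkH : Nat.card (ConjClasses H) ≤ Nat.card H :=
    Nat.card_le_card_of_surjective ConjClasses.mk ConjClasses.mk_surjective

  have hfix0 := card_fixed (K := K) σ.range
  have hmr : Nat.card σ.range = m := by rw [hm, hB, Subgroup.index_ker]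
  rw [hmr, hK] at hfix0
  have hbm : Nat.card B * m = Nat.card D := B.card_mul_index
  have hm0 : 0 < m := Nat.pos_of_ne_zero Subgroup.index_ne_zero_of_finite
  rcases Nat.lt_or_ge m 2 with hm1 | hm2
  · -- `m = 1`
    have hm1' : m = 1 := by omega
    have hBtop : B = ⊤ := by rw [← Subgroup.index_eq_one]; exact hm1'
    have hmem : ∀ d : D, d ∈ B := fun d => by rw [hBtop]; trivial
    have hkD : Nat.card (ConjClasses D) ≤ Nat.card D :=
      Nat.card_le_card_of_surjective ConjClasses.mk ConjClasses.mk_surjective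
    rw [hm1', mul_one] at hbm
    refine ⟨by omega, fun _ => Or.inl ?_⟩
    have hsm : ∀ k l : K, k • v = l • v → k = l := by
      intro k l h
      have h5 : (k - l) • v = 0 := by rw [sub_smul, h, sub_self]
      rcases smul_eq_zero.1 h5 with h6 | h6
      · exact sub_eq_zero.1 h6
      · exact absurd h6 hv
    let g : D →* K :=
      { toFun := κ
        map_one' := hsm _ _ (by rw [← hκ 1 (hmem 1), one_smul, one_smul])
        map_mul' := fun a b => hsm _ _ (by
          rw [← hκ _ (hmem _), mul_smul, hκ b (hmem b), hκ a (hmem a), smul_smul]) }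
    exact isCyclic_of_injective_ringHom g (fun a b h => hκinj a (hmem a) b (hmem b) h)
  · -- `m ≥ 2`
    set f := Nat.card (FixedPoints.subfield σ.range K) with hf
    have hfix : ∀ c : D, c ∉ B → ∃ j l : ℕ, 2 ≤ j ∧ m = j * l ∧ (j ∣ Nat.card D) ∧
        Nat.card ((B ⊓ Subgroup.centralizer ({c} : Set D) : Subgroup D)) + 1 ≤ f ^ l := by
      intro c hc
      have hσc : σ c ≠ 1 := hc
      set Z := Subgroup.zpowers (σ c) with hZ
      have hZr : Z ≤ σ.range := by
        rw [hZ, Subgroup.zpowers_le]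
        exact ⟨c, rfl⟩
      have hj2 : 2 ≤ Nat.card Z := by
        have h1 : 0 < Nat.card Z := Nat.card_pos
        by_contra hlt
        have h2 : Nat.card Z = 1 := by omega
        rw [Subgroup.card_eq_one, hZ, Subgroup.zpowers_eq_bot] at h2
        exact hσc h2
      obtain ⟨l, hl⟩ : Nat.card Z ∣ m := by rw [← hmr]; exact Subgroup.card_dvd_of_le hZr
      refine ⟨Nat.card Z, l, hj2, hl, ?_, ?_⟩
      · have h3 : Nat.card Z ∣ m := ⟨l, hl⟩
        exact h3.trans ⟨Nat.card B, by rw [← hbm, mul_comm]⟩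
      · have h4 : Nat.card (FixedPoints.subfield Z K) = f ^ l := by
          have h5 := card_fixed (K := K) Z
          rw [hK, ← hfix0, hl, mul_comm, pow_mul] at h5
          exact Nat.pow_left_injective (by omega : Nat.card Z ≠ 0) h5
        rw [← h4]
        refine hcount _ _ inf_le_left ?_
        intro b hb
        rw [Subgroup.mem_inf, Subgroup.mem_centralizer_singleton_iff] at hb
        obtain ⟨hb1, hb2⟩ := hb
        have h6 : σ c (κ b) = κ b := by
          have h7 : ∀ e : E, (σ c (κ b)) • (c • e) = (κ b) • (c • e) := by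
            intro e
            rw [← hσ, ← hκ b hb1, ← hκ b hb1, ← mul_smul, ← mul_smul, hb2]
          have h8 := h7 v
          have h9 : (σ c (κ b) - κ b) • (c • v) = 0 := by rw [sub_smul, h8, sub_self]
          rcases smul_eq_zero.1 h9 with h10 | h10
          · exact sub_eq_zero.1 h10
          · exact absurd ((smul_eq_zero_iff_eq c).1 h10) hv
        have h11 : Z ≤ MulAction.stabilizer (K ≃+* K) (κ b) := by
          rw [hZ, Subgroup.zpowers_le]
          exact h6
        intro z
        exact h11 z.2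
    have h2K : p ≠ 2 → (2 : K) ≠ 0 := by
      intro hp2 h2
      have h3 : (p : K) • v = 0 := by rw [Nat.cast_smul_eq_nsmul]; exact hpE v
      rcases smul_eq_zero.1 h3 with h4 | h4
      · have h5 : Odd p := hp.out.odd_of_ne_two hp2
        obtain ⟨r, hr⟩ := h5
        rw [hr, Nat.cast_add, Nat.cast_mul, Nat.cast_two, h2, zero_mul, zero_add, Nat.cast_one] at h4
        exact one_ne_zero h4
      · exact hv h4
    by_cases hp2 : p = 2
    · -- characteristic two
      subst hp2
      have hodd : ¬ 2 ∣ m := fun h => hcop (h.trans ⟨Nat.card B, by rw [← hbm, mul_comm]⟩)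
      have hf2 : 2 ≤ f := two_le_card _
      obtain ⟨ha1, ha2⟩ := arith_two hf2 (by omega : 3 ≤ m)
      rw [hfix0] at ha1 ha2
      have hs1 : 1 ≤ f ^ (m / 3) := Nat.one_le_pow _ _ (by omega)
      have ht : ∀ c : D, c ∉ B →
          Nat.card ((B ⊓ Subgroup.centralizer ({c} : Set D) : Subgroup D)) ≤ f ^ (m / 3) - 1 := by
        intro c hc
        obtain ⟨j, l, hj, hjl, hjD, hle⟩ := hfix c hc
        have hj3 : 3 ≤ j := by
          by_contra hlt
          have : j = 2 := by omega
          exact hcop (this ▸ hjD)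
        have hl3 : l ≤ m / 3 := by
          rw [Nat.le_div_iff_mul_le (by norm_num), hjl]
          nlinarith
        have := Nat.pow_le_pow_right (by omega : 0 < f) hl3
        omega
      have hk := Count.index_mul_le B _ ht
      rw [← hm] at hk
      obtain ⟨r1, r2⟩ := final (k := Nat.card (ConjClasses D)) (h := Nat.card H) hm2 hs1 hBq hHm hk ha1
      refine ⟨(Nat.add_le_add_left hkH _).trans r1, fun heq => ?_⟩
      obtain ⟨r3, r4⟩ := r2 (by omega)
      obtain ⟨hf', hm'⟩ := ha2 r3
      rw [hf', hm'] at hfix0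
      right; left
      refine ⟨by rw [← hfix0]; norm_num, ?_⟩
      rw [← hbm, hm']
      omega
    · have hf3 : 3 ≤ f := three_le_card _ (h2K hp2)
      obtain ⟨ha1, ha2⟩ := arith_odd hf3 hm2
      rw [hfix0] at ha1 ha2
      have hs1 : 1 ≤ f ^ (m / 2) := Nat.one_le_pow _ _ (by omega)
      have ht : ∀ c : D, c ∉ B →
          Nat.card ((B ⊓ Subgroup.centralizer ({c} : Set D) : Subgroup D)) ≤ f ^ (m / 2) - 1 := by
        intro c hc
        obtain ⟨j, l, hj, hjl, hjD, hle⟩ := hfix c hc
        have hl3 : l ≤ m / 2 := by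
          rw [Nat.le_div_iff_mul_le (by norm_num), hjl]
          nlinarith
        have := Nat.pow_le_pow_right (by omega : 0 < f) hl3
        omega
      have hk := Count.index_mul_le B _ ht
      rw [← hm] at hk
      obtain ⟨r1, r2⟩ := final (k := Nat.card (ConjClasses D)) (h := Nat.card H) hm2 hs1 hBq hHm hk ha1
      refine ⟨(Nat.add_le_add_left hkH _).trans r1, fun heq => ?_⟩
      obtain ⟨r3, r4⟩ := r2 (by omega)
      obtain ⟨hf', hm'⟩ := ha2 r3
      rw [hf', hm'] at hfix0
      right; right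
      refine ⟨by rw [← hfix0]; norm_num, ?_⟩
      rw [← hbm, hm']
      omega

end Main

end Cfsg.Agent.H717.Semi
end

-- part: H717/FieldP
section
/-!
# Normal abelian subgroups of transitive linear groups over a prime field

* `exists_field_p` : the field of a commutative normal subgroup, with numbers;
* `isSemi_of_centralizer_le` : a self-centralizing commutative normal subgroup makes the group semilinear;
* `isSemi_of_prime_dvd` : so does a commutative normal subgroup whose order is divisible by a primitive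
  prime divisor of `p ^ n - 1`.
-/

set_option autoImplicit false
set_option linter.style.haveILetI false
set_option linter.unusedSectionVars false

namespace Cfsg.Agent.H717.FieldP

open Cfsg.Agent.H717.Semi

universe u v

variable {D : Type v} {E : Type u} [Group D] [Finite D] [AddCommGroup E] [Finite E] [Nontrivial E]
  [DistribMulAction D E] [FaithfulSMul D E]

theorem exists_field_p (htr : ∀ x y : E, x ≠ 0 → y ≠ 0 → ∃ d : D, d • x = y)
    {p : ℕ} [hp : Fact p.Prime] (hpE : ∀ e : E, p • e = 0)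
    (A : Subgroup D) [A.Normal] (hA : ∀ a ∈ A, ∀ b ∈ A, a * b = b * a) :
    ∃ (K : Type u) (_ : Field K) (_ : Finite K) (_ : Module K E) (_ : CharP K p) (φ : A →* Kˣ) (σ : D →* (K ≃+* K))
      (d j : ℕ),
      (∀ (a : A) (e : E), ((φ a : Kˣ) : K) • e = (a : D) • e) ∧
      (∀ (d : D) (k : K) (e : E), d • (k • e) = (σ d k) • (d • e)) ∧
      (∀ d : D, σ d = 1 ↔ d ∈ Subgroup.centralizer (A : Set D)) ∧
      Function.Injective φ ∧ 1 ≤ d ∧ 1 ≤ j ∧ Nat.card K = p ^ d ∧ Nat.card E = p ^ (d * j) ∧
      Module.finrank K E = j ∧ Nat.card A ∣ p ^ d - 1 ∧ (Subgroup.centralizer (A : Set D)).index ∣ d := by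
  obtain ⟨K, _, _, _, φ, σ, h1, h2, h3⟩ := FieldOf.exists_field htr A hA
  obtain ⟨x₀, hx₀⟩ := exists_ne (0 : E)
  have hpK : (p : K) = 0 := by
    have h4 : (p : K) • x₀ = 0 := by rw [Nat.cast_smul_eq_nsmul]; exact hpE x₀
    rcases smul_eq_zero.1 h4 with h5 | h5
    · exact h5
    · exact absurd h5 hx₀
  haveI hchar : CharP K p := by
    obtain ⟨r, hr⟩ := CharP.exists K
    have h6 : r ∣ p := (CharP.cast_eq_zero_iff K r p).1 hpK
    rcases (Nat.dvd_prime hp.out).1 h6 with h7 | h7
    · subst h7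
      have h8 := CharP.cast_eq_zero K 1
      rw [Nat.cast_one] at h8
      exact absurd h8 one_ne_zero
    · rwa [h7] at hr
  haveI := Fintype.ofFinite K
  obtain ⟨d, -, hd⟩ := FiniteField.card K p
  rw [← Nat.card_eq_fintype_card] at hd
  haveI : Module.Finite K E := Module.Finite.of_finite
  have hE := Module.natCard_eq_pow_finrank (K := K) (V := E)
  have hj : 1 ≤ Module.finrank K E := Module.finrank_pos
  have hinj : Function.Injective φ := by
    intro a b hab
    apply Subtype.ext
    apply FaithfulSMul.eq_of_smul_eq_smul (α := E)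
    intro e
    rw [← h1, ← h1, hab]
  refine ⟨K, inferInstance, inferInstance, inferInstance, hchar, φ, σ, d, Module.finrank K E, h1, h2, h3, hinj, d.2,
    hj, hd, ?_, rfl, ?_, ?_⟩
  · rw [hE, hd, pow_mul]
  · have h8 : Nat.card A = Nat.card φ.range := Nat.card_congr (MonoidHom.ofInjective hinj).toEquiv
    rw [h8, ← hd, ← Nat.card_units]
    exact Subgroup.card_subgroup_dvd_card _
  · haveI : Finite (K ≃+* K) := Finite.of_injective (fun f : K ≃+* K => (f : K → K)) DFunLike.coe_injective
    have h9 : σ.ker = Subgroup.centralizer (A : Set D) := by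
      ext x
      rw [MonoidHom.mem_ker, h3]
    have h10 := card_fixed (K := K) σ.range
    rw [← Subgroup.index_ker, h9, hd] at h10
    have h11 : Nat.card (FixedPoints.subfield σ.range K) ∣ p ^ (d : ℕ) := by
      rw [← h10]
      refine dvd_pow_self _ ?_
      have := Subgroup.index_ne_zero_of_finite (H := Subgroup.centralizer (A : Set D))
      exact this
    obtain ⟨i, -, hi⟩ := (Nat.dvd_prime_pow hp.out).1 h11
    rw [hi, ← pow_mul] at h10
    have h12 := Nat.pow_right_injective hp.out.two_le h10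
    exact ⟨i, by rw [← h12, mul_comm]⟩

theorem isSemi_of_centralizer_le (htr : ∀ x y : E, x ≠ 0 → y ≠ 0 → ∃ d : D, d • x = y)
    {p : ℕ} [hp : Fact p.Prime] (hpE : ∀ e : E, p • e = 0)
    (A : Subgroup D) [A.Normal] (hA : ∀ a ∈ A, ∀ b ∈ A, a * b = b * a)
    (hC : Subgroup.centralizer (A : Set D) ≤ A) : IsSemi D E := by
  obtain ⟨K, _, _, _, _, φ, σ, d, j, h1, h2, h3, hinj, hd1, hj1, hK, hE, hfr, hdvd, hidx⟩ :=
    exists_field_p htr hpE A hA
  refine ⟨K, inferInstance, inferInstance, inferInstance, σ, h2, ?_⟩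
  obtain ⟨x₀, hx₀⟩ := exists_ne (0 : E)
  have hp2 := hp.out.two_le
  have hpd : 2 ≤ p ^ d := hp2.trans (Nat.le_self_pow (by omega) p)
  have e1 : Nat.card A ≤ p ^ d - 1 := Nat.le_of_dvd (by omega) hdvd
  have e2 : (Subgroup.centralizer (A : Set D)).index ≤ d := Nat.le_of_dvd (by omega) hidx
  have e3 : Nat.card (Subgroup.centralizer (A : Set D)) ≤ Nat.card A := Subgroup.card_le_of_le hC
  have e4 := (Subgroup.centralizer (A : Set D)).card_mul_index
  have e5 : Nat.card D ≤ (p ^ d - 1) * d := by
    rw [← e4]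
    exact Nat.mul_le_mul (e3.trans e1) e2
  have e6 := card_eq htr hx₀
  have e7 : 1 ≤ Nat.card (MulAction.stabilizer D x₀) := Nat.card_pos
  have e8 : Nat.card E - 1 ≤ Nat.card D := by
    rw [e6]; exact Nat.le_mul_of_pos_right _ e7
  have hj : j = 1 := by
    by_contra hne
    have hj2 : 2 ≤ j := by omega
    have e9 : p ^ (d * 2) ≤ p ^ (d * j) := Nat.pow_le_pow_right (by omega) (Nat.mul_le_mul_left d hj2)
    have e10 : d < p ^ d := Nat.lt_pow_self (by omega)
    rw [pow_mul, sq] at e9
    rw [hE] at e8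
    obtain ⟨t, ht⟩ : ∃ t, p ^ d = t + 1 := ⟨p ^ d - 1, by omega⟩
    rw [ht] at e9 e5 e10
    rw [Nat.add_sub_cancel] at e5
    have e11 : (t + 1) * (t + 1) - 1 ≤ t * d := (Nat.sub_le_sub_right e9 1).trans (e8.trans e5)
    have e12 : (t + 1) * (t + 1) ≤ t * d + 1 := by omega
    have e13 : t * d ≤ t * t := Nat.mul_le_mul_left t (by omega)
    nlinarith
  rw [hK, hE, hj, mul_one]

theorem isSemi_of_prime_dvd (htr : ∀ x y : E, x ≠ 0 → y ≠ 0 → ∃ d : D, d • x = y)
    {p : ℕ} [hp : Fact p.Prime] (hpE : ∀ e : E, p • e = 0) {n : ℕ} (hn : Nat.card E = p ^ n)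
    (A : Subgroup D) [A.Normal] (hA : ∀ a ∈ A, ∀ b ∈ A, a * b = b * a) {r : ℕ}
    (hr : ∀ i : ℕ, 1 ≤ i → i < n → ¬ r ∣ p ^ i - 1) (hrA : r ∣ Nat.card A) : IsSemi D E := by
  obtain ⟨K, _, _, _, _, φ, σ, d, j, h1, h2, h3, hinj, hd1, hj1, hK, hE, hfr, hdvd, hidx⟩ :=
    exists_field_p htr hpE A hA
  refine ⟨K, inferInstance, inferInstance, inferInstance, σ, h2, ?_⟩
  have h4 : d * j = n := by
    rw [hE] at hn
    exact Nat.pow_right_injective hp.out.two_le hn
  have h5 : ¬ d < n := fun h => hr d hd1 h (hrA.trans hdvd)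
  have h6 : d ≤ d * j := Nat.le_mul_of_pos_right d hj1
  have h7 : d = n := by omega
  rw [hK, hn, h7]

/-- A nontrivial normal `r`-subgroup, `r` a primitive prime divisor, makes the group semilinear. -/
theorem isSemi_of_isPGroup (htr : ∀ x y : E, x ≠ 0 → y ≠ 0 → ∃ d : D, d • x = y)
    {p : ℕ} [hp : Fact p.Prime] (hpE : ∀ e : E, p • e = 0) {n : ℕ} (hn : Nat.card E = p ^ n)
    {r : ℕ} [hr' : Fact r.Prime] (hr : ∀ i : ℕ, 1 ≤ i → i < n → ¬ r ∣ p ^ i - 1)
    (N : Subgroup D) [N.Normal] (hN : IsPGroup r N) (hN1 : N ≠ ⊥) : IsSemi D E := by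
  haveI : Nontrivial N := (Subgroup.nontrivial_iff_ne_bot N).2 hN1
  haveI : Nontrivial (Subgroup.center N) := hN.center_nontrivial
  let A : Subgroup D := (Subgroup.center N).map N.subtype
  haveI : A.Normal := inferInstance
  have hA : ∀ a ∈ A, ∀ b ∈ A, a * b = b * a := by
    rintro _ ⟨a, ha, rfl⟩ _ ⟨b, hb, rfl⟩
    have := (Subgroup.mem_center_iff.1 hb) a
    exact congrArg Subtype.val this
  have hcard : Nat.card A = Nat.card (Subgroup.center N) :=
    (Subgroup.card_map_of_injective N.subtype_injective)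
  refine isSemi_of_prime_dvd htr hpE hn A hA hr ?_
  rw [hcard]
  have h2 : IsPGroup r (Subgroup.center N) := hN.to_subgroup _
  obtain ⟨k, hk⟩ := IsPGroup.iff_card.1 h2
  have h3 : 1 < Nat.card (Subgroup.center N) := Finite.one_lt_card
  rw [hk] at h3 ⊢
  have : k ≠ 0 := by
    rintro rfl
    simp at h3
  exact dvd_pow_self r this

end Cfsg.Agent.H717.FieldP
end
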